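import Cfsg.Agent.H4.OA3
import Cfsg.Agent.H5.PCore

set_option autoImplicit false
set_option linter.unusedSectionVars false

/-! S3354: component families and their maximal intersections. -/

namespace CfsgOB

open Subgroup CfsgH5 CfsgOA

variable {G Ω : Type*} [Group G] [MulAction G Ω] [Finite G]

/-- a family of components. -/
structure CF (C : Ω → Set (Subgroup G)) : Prop where
  two : Two G Ω
  faith : ∀ g : G, (∀ x : Ω, g • x = x) → g = 1
  fix : ∀ x, ∀ T ∈ C x, ∀ t ∈ T, t • x = x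
  cjm : ∀ (g : G) x, ∀ T ∈ C x, cj g T ∈ C (g • x)
  simp : ∀ x, ∀ T ∈ C x, IsSimpleGroup T
  nab : ∀ x, ∀ T ∈ C x, ¬ IsMulCommutative T
  comm : ∀ x, ∀ T ∈ C x, ∀ U ∈ C x, T ≠ U → ∀ t ∈ T, ∀ u ∈ U, t * u = u * t
  trans : ∀ x y, ∀ T ∈ C x, ∀ U ∈ C y, ∃ g : G, g • x = y ∧ cj g T = U
  twoc : ∀ x, ∀ T ∈ C x, ∃ U ∈ C x, U ≠ T

/-- `S` lies in a component at `z`. -/
def La (C : Ω → Set (Subgroup G)) (S : Subgroup G) (z : Ω) : Prop := ∃ T ∈ C z, S ≤ T

/-- the intersections of order `s` for the pair `x, y`. -/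
def SS (C : Ω → Set (Subgroup G)) (s : ℕ) (x y : Ω) : Set (Subgroup G) :=
  {S | Nat.card S = s ∧ La C S x ∧ La C S y}

/-- case (alpha): `s > 1` is the largest order of an intersection. -/
structure AL (C : Ω → Set (Subgroup G)) (s : ℕ) : Prop extends CF C where
  one : 1 < s
  max : ∀ x y, x ≠ y → ∀ T ∈ C x, ∀ U ∈ C y, Nat.card ↥(T ⊓ U) ≤ s
  ex : ∀ x y, x ≠ y → (SS C s x y).Nonempty
  pt : ∃ x y : Ω, x ≠ y

theorem cj_of_comm {g : G} {S : Subgroup G} (h : ∀ s ∈ S, g * s = s * g) : cj g S = S := by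
  ext x
  rw [mem_cj]
  refine ⟨fun hx => ?_, fun hx => by rw [mul_assoc, ← h x hx, inv_mul_cancel_left]; exact hx⟩
  have := h _ hx
  rw [← mul_assoc, ← mul_assoc, mul_inv_cancel, one_mul, mul_left_inj] at this
  rwa [this]

theorem cj_of_mem {g : G} {S : Subgroup G} (h : g ∈ S) : cj g S = S := (Nrm.self S).cj_eq h

theorem simp_le {T R : Subgroup G} (hs : IsSimpleGroup T) (h : ∀ t ∈ T, ∀ r ∈ R, r ∈ T →
    t * r * t⁻¹ ∈ R) {r : G} (hr : r ∈ R) (rT : r ∈ T) (r1 : r ≠ 1) : T ≤ R := by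
  have n : (R.subgroupOf T).Normal := ⟨fun a ha g => h g g.2 a ha a.2⟩
  refine subgroupOf_eq_top.1 (n.eq_bot_or_eq_top.resolve_left fun e => r1 ?_)
  exact congrArg Subtype.val (mem_bot.1 (e.le (show (⟨r, rT⟩ : T) ∈ R.subgroupOf T from hr)))

variable {C : Ω → Set (Subgroup G)} {s : ℕ} {x y z w : Ω} {S S' T U V : Subgroup G} {g t : G}

theorem La.cjj (h : CF C) (a : La C S x) (g : G) : La C (cj g S) (g • x) :=
  let ⟨T, h1, h2⟩ := a; ⟨_, h.cjm g x T h1, cj_mono h2⟩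

theorem SS_symm : SS C s x y = SS C s y x := Set.ext fun _ => and_congr_right fun _ => and_comm

namespace CF

variable (h : CF C)
include h

theorem cjm' (e : g • x = y) (hT : T ∈ C x) : cj g T ∈ C y := e ▸ h.cjm g x T hT

theorem La_fix (a : La C S x) (ht : t ∈ S) : t • x = x :=
  let ⟨T, h1, h2⟩ := a; h.fix x T h1 t (h2 ht)

theorem La_comm (a : La C S x) (e : ∀ s ∈ S, g * s = s * g) : La C S (g • x) :=
  cj_of_comm e ▸ a.cjj h g

theorem SS_cj (a : S ∈ SS C s x y) (g : G) : cj g S ∈ SS C s (g • x) (g • y) :=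
  ⟨(card_cj g S).trans a.1, a.2.1.cjj h g, a.2.2.cjj h g⟩

theorem SS_image (g : G) : SS C s (g • x) (g • y) = cj g '' SS C s x y := by
  refine Set.ext fun S => ⟨fun a => ⟨_, ?_, cj_cj_inv g S⟩, ?_⟩
  · simpa using h.SS_cj a g⁻¹
  · rintro ⟨S, a, rfl⟩
    exact h.SS_cj a g

theorem ncard_SS {x' y' : Ω} (n : x ≠ y) (n' : x' ≠ y') :
    (SS C s x y).ncard = (SS C s x' y').ncard := by
  obtain ⟨g, rfl, rfl⟩ := h.two x y x' y' n n'
  rw [h.SS_image, Set.ncard_image_of_injective _ fun a b e => by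
    rw [← cj_inv_cj g a, e, cj_inv_cj]]

theorem card_eq (hT : T ∈ C x) (hU : U ∈ C y) : Nat.card T = Nat.card U := by
  obtain ⟨g, -, rfl⟩ := h.trans x y T hT U hU
  exact (card_cj g T).symm

/-- an element of a component commuting with it is trivial. -/
theorem cen (hT : T ∈ C x) (ht : t ∈ T) (e : ∀ u ∈ T, u * t = t * u) : t = 1 := by
  by_contra t1
  have := simp_le (R := centralizer (T : Set G)) (h.simp x T hT) (fun a ha r hr _ => by
    rw [hr a ha, mul_inv_cancel_right]; exact hr) e ht t1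
  exact h.nab x T hT ⟨⟨fun a b => Subtype.ext (this b.2 a a.2)⟩⟩

theorem eq_of_mem (hT : T ∈ C x) (hU : U ∈ C x) (h1 : t ∈ T) (h2 : t ∈ U) (t1 : t ≠ 1) : T = U := by
  by_contra e
  exact t1 (h.cen hT h1 fun u hu => h.comm x T hT U hU e u hu t h2)

theorem cj_comp (hT : T ∈ C x) (hU : U ∈ C x) (ht : t ∈ T) : cj t U = U := by
  by_cases e : T = U
  · exact cj_of_mem (e ▸ ht)
  · exact cj_of_comm (h.comm x T hT U hU e t ht)

theorem ex_ne (hT : T ∈ C x) : ∃ t ∈ T, t ≠ 1 := by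
  by_contra e
  push Not at e
  exact h.nab x T hT ⟨⟨fun a b => Subtype.ext (by
    show (a : G) * b = b * a
    rw [e a a.2, e b b.2])⟩⟩

/-- a component determines its point. -/
theorem uniq (hx : T ∈ C x) (hy : T ∈ C y) : x = y := by
  by_contra n
  have cd : ∀ a b a' b', a ≠ b → a' ≠ b' → C a ∩ C b ⊆ C a' ∩ C b' → C a ∩ C b = C a' ∩ C b' :=
    fun a b a' b' n n' e => by
    obtain ⟨g, rfl, rfl⟩ := h.two a' b' a b n' n
    refine Set.eq_of_subset_of_ncard_le e (Set.ncard_le_ncard_of_injOn (cj g)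
      (fun U hU => ⟨h.cjm g _ U hU.1, h.cjm g _ U hU.2⟩)
      (fun a _ b _ e => by rw [← cj_inv_cj g a, e, cj_inv_cj]))
  obtain ⟨t, ht, t1⟩ := h.ex_ne hx
  refine t1 (h.faith t fun z => ?_)
  by_contra m
  have nz : ∀ a, T ∈ C a → a ≠ z := fun a ha e => m (e ▸ h.fix a T ha t ht)
  have k : ∀ a, T ∈ C a → C a ∩ C z = C (t • z) ∩ C z := fun a ha =>
    cd _ _ _ _ (nz a ha) m fun U hU => ⟨h.cj_comp ha hU.1 ht ▸ h.cjm t z U hU.2, hU.2⟩
  have := cd _ _ _ _ (nz x hx) n fun U hU => ⟨hU.1, ((k y hy).ge ((k x hx).le hU)).1⟩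
  exact m (h.fix z T (this.ge ⟨hx, hy⟩).2 t ht)

/-- components at different points with a common element move the other point. -/
theorem moves (n : x ≠ y) (hT : T ∈ C x) (hU : U ∈ C y) (h1 : t ∈ T) (h2 : t ∈ U) (t1 : t ≠ 1) :
    ∃ a ∈ T, a • y ≠ y := by
  by_contra e
  push Not at e
  let R : Subgroup G :=
    { carrier := {r | ∀ W ∈ C y, cj r W = W}
      one_mem' := fun W _ => cj_one W
      mul_mem' := fun {a b} ha hb W hW => by rw [← cj_cj, hb W hW, ha W hW]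
      inv_mem' := fun {a} ha W hW => by conv_lhs => rw [← ha W hW, cj_inv_cj] }
  have k : T ≤ R := simp_le (h.simp x T hT) (fun a ha r hr _ W hW => by
    rw [← cj_cj, ← cj_cj, hr _ (h.cjm' (e _ (inv_mem ha)) hW), cj_cj_inv])
    (fun W hW => h.cj_comp hU hW h2) h1 t1
  have k2 : T ≤ U := simp_le (h.simp x T hT) (fun a ha r hr _ =>
    k ha U hU ▸ conj_mem_cj.2 hr) h2 h1 t1
  exact n (h.uniq hT (eq_of_le_of_card_ge k2 (h.card_eq hU hT).le ▸ hU))

/-- KEY: an element of `T` moves `w` inside the blocks of the other types. -/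
theorem key (hT : T ∈ C z) (hV : V ∈ C z) (n : T ≠ V) (ht : t ∈ T) (a : S' ≤ V) (b : La C S' w) :
    La C S' (t • w) := h.La_comm b fun u hu => h.comm z T hT V hV n t ht u (a hu)

end CF

namespace AL

variable (h : AL C s)
include h

theorem ex_ne (a : Nat.card S = s) : ∃ t ∈ S, t ≠ 1 :=
  (bot_or_exists_ne_one S).resolve_left fun e => h.one.ne (by rw [← a, e, card_bot])

theorem comp_eq (a : Nat.card S = s) (hT : T ∈ C x) (hU : U ∈ C x) (h1 : S ≤ T) (h2 : S ≤ U) :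
    T = U := let ⟨_, ht, t1⟩ := h.ex_ne a; h.eq_of_mem hT hU (h1 ht) (h2 ht) t1

theorem eq_inf (n : x ≠ y) (a : Nat.card S = s) (hT : T ∈ C x) (hU : U ∈ C y) (h1 : S ≤ T)
    (h2 : S ≤ U) : S = T ⊓ U :=
  eq_of_le_of_card_ge (le_inf h1 h2) (a ▸ h.max x y n T hT U hU)

theorem SS_eq {x' y' : Ω} (n : x ≠ y) (n' : x' ≠ y') (e : SS C s x y ⊆ SS C s x' y') :
    SS C s x y = SS C s x' y' := Set.eq_of_subset_of_ncard_le e (h.ncard_SS n' n).le

theorem ex_move (a : Nat.card S = s) : ∃ t ∈ S, ∃ w : Ω, t • w ≠ w := by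
  obtain ⟨t, ht, t1⟩ := h.ex_ne a
  by_contra e
  push Not at e
  exact t1 (h.faith t (e t ht))

end AL

/-- no component contains two maximal intersections of a pair. -/
def NoDeg (C : Ω → Set (Subgroup G)) (s : ℕ) : Prop :=
  ∀ x y, x ≠ y → ∀ T ∈ C x, ∀ S ∈ SS C s x y, ∀ S' ∈ SS C s x y, S ≤ T → S' ≤ T → S = S'

theorem CF.al (h : CF C) (n : x ≠ y) (hT : T ∈ C x) (hU : U ∈ C y) (h1 : t ∈ T) (h2 : t ∈ U)
    (t1 : t ≠ 1) : ∃ s, AL C s := by
  let P : Set ℕ := {m | ∃ a b, a ≠ b ∧ ∃ A ∈ C a, ∃ B ∈ C b, Nat.card ↥(A ⊓ B) = m}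
  have bd : BddAbove P := ⟨Nat.card G, by
    rintro _ ⟨a, b, -, A, -, B, -, rfl⟩
    exact card_le_card_group _⟩
  have ne : Nat.card ↥(T ⊓ U) ∈ P := ⟨x, y, n, T, hT, U, hU, rfl⟩
  obtain ⟨a, b, ab, A, hA, B, hB, e⟩ := Nat.sSup_mem ⟨_, ne⟩ bd
  refine ⟨sSup P, h, lt_of_lt_of_le ((one_lt_card_iff_ne_bot _).2 fun q => t1 (mem_bot.1 (q.le
    (mem_inf.2 ⟨h1, h2⟩)))) (le_csSup bd ne), fun c d cd A hA B hB => le_csSup bd ⟨c, d, cd, A, hA, B, hB, rfl⟩,
    fun c d cd => ?_, x, y, n⟩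
  obtain ⟨g, rfl, rfl⟩ := h.two a b c d ab cd
  exact ⟨_, h.SS_cj ⟨e, ⟨A, hA, inf_le_left⟩, B, hB, inf_le_right⟩ g⟩

theorem CF.of_OA [FaithfulSMul G Ω] (two : Two G Ω) (h : CfsgOA.CF C) : CF C where
  two := two
  faith g hg := eq_of_smul_eq_smul (α := Ω) fun x => by rw [hg, one_smul]
  fix := h.fix
  cjm := h.cj
  simp := h.simple
  nab x T hT e := let ⟨a, ha, b, hb, q⟩ := h.nc x T hT
    q (congrArg Subtype.val (e.is_comm.comm (⟨a, ha⟩ : T) ⟨b, hb⟩))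
  comm := h.comm
  trans x y T hT U hU := by
    obtain ⟨g, e⟩ : ∃ g : G, g • x = y := by
      by_cases q : x = y
      · exact ⟨1, by rw [one_smul, q]⟩
      · exact let ⟨g, a, _⟩ := two x y y x q (Ne.symm q); ⟨g, a⟩
    obtain ⟨k, a, b⟩ := h.trans y _ (e ▸ h.cj g x T hT) U hU
    exact ⟨k * g, by rw [mul_smul, e, a], by rw [← cj_cj]; exact b⟩
  twoc x T hT := by
    obtain ⟨A, hA, B, hB, n⟩ := h.two x
    by_cases q : A = T
    · exact ⟨B, hB, fun e => n (q.trans e.symm)⟩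
    · exact ⟨A, hA, q⟩

end CfsgOB
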