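import Cfsg.Agent.H7.OB0

set_option autoImplicit false
set_option linter.unusedSectionVars false

/-! S3354, case (alpha): matchings with at least two edges. -/

namespace CfsgOB

open Subgroup CfsgH5 CfsgOA

variable {G Ω : Type*} [Group G] [MulAction G Ω] [Finite G]

theorem avoid3 {T S : Subgroup G} (hs : IsSimpleGroup T) (hn : ¬ IsMulCommutative T) (hS : S ≤ T)
    {t : G} (ht : t ∈ S) (t1 : t ≠ 1) (ST : ¬ T ≤ S) (a b c : Subgroup G) :
    ∃ n ∈ T, cj n S ≠ a ∧ cj n S ≠ b ∧ cj n S ≠ c := by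
  by_contra e
  push Not at e
  letI : MulAction T (Subgroup G) :=
    { smul := fun n S => cj n S
      one_smul := cj_one
      mul_smul := fun a b S => (cj_cj _ _ _).symm }
  have i : (MulAction.stabilizer T S).index ≤ 3 := by
    rw [MulAction.index_stabilizer]
    refine (Set.ncard_le_ncard (t := {a, b, c}) ?_).trans ((Set.ncard_insert_le _ _).trans
      (Nat.succ_le_succ ((Set.ncard_insert_le _ _).trans (by simp))))
    rintro _ ⟨n, rfl⟩
    have := e n n.2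
    show cj (n : G) S = a ∨ cj (n : G) S = b ∨ cj (n : G) S = c
    tauto
  rcases (normalCore_normal (MulAction.stabilizer T S)).eq_bot_or_eq_top with q | q
  · have d := index_normalCore_dvd_factorial (MulAction.stabilizer T S)
    rw [q, index_bot] at d
    have := IsZGroup.of_squarefree (G := T) ((show Squarefree (Nat.factorial 3) from
      (Nat.squarefree_mul (by norm_num : Nat.Coprime 2 3)).2
        ⟨Nat.prime_two.squarefree, Nat.prime_three.squarefree⟩).squarefree_of_dvd (d.trans (Nat.factorial_dvd_factorial i)))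
    exact hn ⟨⟨IsSimpleGroup.comm_iff_isSolvable.2 inferInstance⟩⟩
  · refine ST (simp_le hs (fun n hn r hr _ => ?_) ht (hS ht) t1)
    have : cj n S = S := (normalCore_le _) (q.ge (mem_top (⟨n, hn⟩ : T)))
    exact this ▸ conj_mem_cj.2 hr

variable {C : Ω → Set (Subgroup G)} {s : ℕ} {x y z w : Ω} {S S' T U V : Subgroup G} {g t : G}

namespace AL

variable (h : AL C s)
include h

theorem avoid (n : x ≠ y) (a : S ∈ SS C s x y) (hT : T ∈ C x) (e : S ≤ T) (A B D : Subgroup G) :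
    ∃ n ∈ T, cj n S ≠ A ∧ cj n S ≠ B ∧ cj n S ≠ D := by
  obtain ⟨t, ht, t1⟩ := h.ex_ne a.1
  obtain ⟨U, hU, e2⟩ := a.2.2
  exact avoid3 (h.simp x T hT) (h.nab x T hT) e ht t1 (fun q => n (h.uniq hT
    (eq_of_le_of_card_ge (q.trans e2) (h.card_eq hU hT).le ▸ hU))) A B D

theorem big (nd : NoDeg C s) (a : La C S z) (ht : t ∈ S) (m : t • w ≠ w) :
    (SS C s w (t • w)).ncard ≤ (SS C s z w ∩ SS C s w (t • w)).ncard + 1 := by
  have n : z ≠ w := fun e => m (e ▸ h.La_fix a ht)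
  obtain ⟨T, hT, e⟩ := a
  rw [h.ncard_SS m.symm n]
  refine (Set.ncard_le_ncard (t := (SS C s z w ∩ SS C s w (t • w)) ∪
    {A | A ∈ SS C s z w ∧ A ≤ T}) fun A hA => ?_).trans ((Set.ncard_union_le _ _).trans
    (Nat.add_le_add_left ((Set.ncard_le_one (Set.toFinite _)).2 fun A hA B hB =>
      nd z w n T hT A hA.1 B hB.1 hA.2 hB.2) _))
  obtain ⟨V, hV, e2⟩ := hA.2.1
  by_cases q : T = V
  · exact Or.inr ⟨hA, q ▸ e2⟩
  · exact Or.inl ⟨hA, hA.1, hA.2.2, h.key hT hV q (e ht) e2 hA.2.2⟩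

theorem away (nd : NoDeg C s) (c : Nat.card S = s) (a : La C S x) (ht : t ∈ S) (m : t • w ≠ w)
    (k : ℕ) : ∀ y, x ≠ y → La C S y → (SS C s x y ∩ SS C s w (t • w)).ncard = k →
      ∃ y, x ≠ y ∧ La C S y ∧ SS C s x y ∩ SS C s w (t • w) = ∅ := by
  induction k using Nat.strong_induction_on with
  | _ k ih =>
  intro y n b hk
  rcases (SS C s x y ∩ SS C s w (t • w)).eq_empty_or_nonempty with e | ⟨A, hA, hL⟩
  · exact ⟨y, n, b, e⟩
  have xw : x ≠ w := fun e => m (e ▸ h.La_fix a ht)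
  obtain ⟨T, hT, e⟩ := id a
  obtain ⟨V, hV, e2⟩ := hA.2.1
  have TV : V ≠ T := fun q => m (h.La_fix
    (nd x y n T hT A hA S ⟨c, a, b⟩ (q ▸ e2) e ▸ hL.2.1) ht)
  obtain ⟨u, hu, u1, -⟩ := h.avoid n hA hV e2 A A A
  have ux := h.fix x V hV u hu
  refine ih _ (hk ▸ Set.ncard_lt_ncard ⟨fun B hB => ?_, fun q => ?_⟩) (u • y)
    (fun q => n (MulAction.injective u (ux.trans q)))
    (h.La_comm b fun r hr => h.comm x V hV T hT TV u hu r (e hr)) rfl
  · obtain ⟨hB, hB'⟩ := hB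
    rw [← ux, h.SS_image] at hB
    obtain ⟨B, hB, rfl⟩ := hB
    obtain ⟨W, hW, e3⟩ := hB.2.1
    by_cases q : V = W
    · subst q
      obtain rfl := nd x y n V hV A hA B hB e2 e3
      have l : cj u A ≤ V := (cj_mono e2).trans (cj_of_mem hu).le
      exact absurd (nd x w xw V hV _ ⟨hB'.1, ⟨V, hV, l⟩, hB'.2.1⟩ A ⟨hA.1, hA.2.1, hL.2.1⟩ l e2) u1
    · rw [cj_of_comm fun r hr => h.comm x V hV W hW q u hu r (e3 hr)] at hB' ⊢
      exact ⟨hB, hB'⟩
  · have hB := (q ⟨hA, hL⟩).1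
    have := h.SS_cj hA u
    rw [ux] at this
    exact u1 (nd x _ (fun q => n (MulAction.injective u (ux.trans q))) V hV _ this A hB
      ((cj_mono e2).trans (cj_of_mem hu).le) e2)

theorem matching (nd : NoDeg C s) (n : x ≠ y) (a : S ∈ SS C s x y) (a2 : S' ∈ SS C s x y) :
    S = S' := by
  by_contra ne
  obtain ⟨t, ht, w, m⟩ := h.ex_move a.1
  have e2 : 2 ≤ (SS C s w (t • w)).ncard := by
    rw [h.ncard_SS m.symm n]
    exact (Set.one_lt_ncard (Set.toFinite _)).2 ⟨S, a, S', a2, ne⟩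
  have e3 : (SS C s w (t • w)).ncard ≤ 2 := by
    obtain ⟨y, n, b, e⟩ := h.away nd a.1 a.2.1 ht m _ y n a.2.2 rfl
    have b1 := h.big nd a.2.1 ht m
    have b2 := h.big nd b ht m
    have b3 := Set.ncard_union_eq (s := SS C s x w ∩ SS C s w (t • w))
      (t := SS C s y w ∩ SS C s w (t • w)) (Set.disjoint_left.2 fun A hA hB =>
        e.le (⟨⟨hA.1.1, hA.1.2.1, hB.1.2.1⟩, hA.2⟩ : A ∈ SS C s x y ∩ SS C s w (t • w)))
    have b4 := Set.ncard_le_ncard (s := SS C s x w ∩ SS C s w (t • w) ∪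
      SS C s y w ∩ SS C s w (t • w)) (t := SS C s w (t • w)) fun A hA => hA.elim And.right And.right
    omega
  have three : ∀ p q, p ≠ q → ∀ A ∈ SS C s p q, ∀ B ∈ SS C s p q, ∀ D ∈ SS C s p q,
      A ≠ B → A ≠ D → B = D := fun p q pq A hA B hB D hD AB AD => by
    obtain ⟨u, v, -, e⟩ := Set.ncard_eq_two.1 ((h.ncard_SS pq m.symm).trans (e3.antisymm e2))
    rw [e] at hA hB hD
    rcases hA with rfl | rfl <;> rcases hB with rfl | rfl <;> rcases hD with rfl | rfl <;>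
      first | rfl | exact absurd rfl AB | exact absurd rfl AD
  have cov : ∀ z, La C S z → ∃ A ∈ SS C s w (t • w), La C A z := fun z hz => by
    obtain ⟨A, hA⟩ := Set.nonempty_of_ncard_ne_zero (s := SS C s z w ∩ SS C s w (t • w))
      (by have := h.big nd hz ht m; omega)
    exact ⟨A, hA.2, hA.1.2.1⟩
  have nS : ∀ A ∈ SS C s w (t • w), S ≠ A := fun A hA e => m (h.La_fix (e ▸ hA.2.1) ht)
  obtain ⟨A, hA, Ax⟩ := cov x a.2.1
  obtain ⟨T, hT, e⟩ := a.2.1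
  obtain ⟨V, hV, e'⟩ := a2.2.1
  have TV : V ≠ T := fun q => ne (nd x y n T hT S a S' a2 e (q ▸ e'))
  have f : ∀ u ∈ V, cj u S' ≠ A → x ≠ u • y ∧ S ∈ SS C s x (u • y) ∧ cj u S' ∈ SS C s x (u • y) ∧
      S ≠ cj u S' ∧ ∃ B ∈ SS C s w (t • w), La C B (u • y) ∧ A ≠ B := fun u hu q => by
    have ux := h.fix x V hV u hu
    have n1 : x ≠ u • y := fun q => n (MulAction.injective u (ux.trans q))
    have l := h.La_comm a.2.2 fun r hr => h.comm x V hV T hT TV u hu r (e hr)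
    have k := h.SS_cj a2 u
    rw [ux] at k
    have d : S ≠ cj u S' := fun q =>
      TV (h.comp_eq a.1 hV hT (q ▸ (cj_mono e').trans (cj_of_mem hu).le) e)
    obtain ⟨B, hB, b⟩ := cov _ l
    exact ⟨n1, ⟨a.1, a.2.1, l⟩, k, d, B, hB, b, fun r => q (three _ _ n1 S ⟨a.1, a.2.1, l⟩ _ k A
      ⟨hA.1, Ax, r ▸ b⟩ d (nS A hA))⟩
  obtain ⟨u1, h1, c1, -⟩ := h.avoid n a2 hV e' A A A
  obtain ⟨u2, h2, c2, d2, -⟩ := h.avoid n a2 hV e' A (cj u1 S') A
  obtain ⟨u3, h3, c3, d3, d4⟩ := h.avoid n a2 hV e' A (cj u1 S') (cj u2 S')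
  obtain ⟨n1, s1, k1, r1, B, hB, b1, AB⟩ := f u1 h1 c1
  obtain ⟨n2, s2, k2, r2, B2, hB2, b2, AB2⟩ := f u2 h2 c2
  obtain ⟨n3, s3, k3, r3, B3, hB3, b3, AB3⟩ := f u3 h3 c3
  obtain rfl := three _ _ m.symm A hA B hB B2 hB2 AB AB2
  obtain rfl := three _ _ m.symm A hA B hB B3 hB3 AB AB3
  have y12 : u1 • y ≠ u2 • y := fun q => d2 (three _ _ n2 S s2 _ k2 _ (q ▸ k1) r2 r1)
  have y13 : u1 • y ≠ u3 • y := fun q => d3 (three _ _ n3 S s3 _ k3 _ (q ▸ k1) r3 r1)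
  have y23 : u2 • y ≠ u3 • y := fun q => d4 (three _ _ n3 S s3 _ k3 _ (q ▸ k2) r3 r2)
  have Bx : ¬ La C B x := fun q => d2 ((three _ _ n2 S s2 _ k2 B ⟨hB.1, q, b2⟩ r2 (nS B hB)).trans
    (three _ _ n1 S s1 _ k1 B ⟨hB.1, q, b1⟩ r1 (nS B hB)).symm)
  have l : SS C s (u1 • y) (u2 • y) = SS C s (u1 • y) (u3 • y) := h.SS_eq y12 y13 fun D hD => by
    by_cases q : S = D
    · exact q ▸ ⟨a.1, s1.2.2, s3.2.2⟩
    · exact three _ _ y12 S ⟨a.1, s1.2.2, s2.2.2⟩ B ⟨hB.1, b1, b2⟩ D hD (nS B hB) q ▸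
        ⟨hB.1, b1, b3⟩
  obtain ⟨g, g1, g2⟩ := h.two _ _ _ _ y12 n1
  have l2 : SS C s x (u1 • y) = SS C s x (g • u3 • y) := by
    conv_lhs => rw [← g2, ← g1, h.SS_image, l, ← h.SS_image, g1]
  have p1 : x ≠ g • u3 • y := fun q => y13 (MulAction.injective g (g1.trans q))
  have p2 : g • u3 • y ≠ u1 • y := fun q => y23 (MulAction.injective g (g2.trans q.symm))
  obtain ⟨D, hD, d⟩ := cov _ (l2.le s1).2.2
  by_cases q : A = D
  · exact c1 (three _ _ p1 S (l2.le s1) _ (l2.le k1) A ⟨hA.1, Ax, q ▸ d⟩ r1 (nS A hA))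
  · obtain rfl := three _ _ m.symm A hA B hB D hD AB q
    exact Bx (three _ _ p2 S ⟨a.1, (l2.le s1).2.2, s1.2.2⟩ _ ⟨k1.1, (l2.le k1).2.2, k1.2.2⟩ B
      ⟨hB.1, d, b1⟩ r1 (nS B hB) ▸ k1.2.1)

end AL

end CfsgOB
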