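import Cfsg.Agent.H7.OB1
import Cfsg.Agent.H1.OD3
import Cfsg.Agent.H6.OE1

set_option autoImplicit false
set_option linter.unusedSectionVars false

/-! S3354, case (alpha): reduction to the case of one edge. -/

namespace CfsgOB

open Subgroup CfsgH5 CfsgOA

variable {G Ω : Type*} [Group G] [MulAction G Ω] [Finite G]
variable {C : Ω → Set (Subgroup G)} {s : ℕ} {x y : Ω} {T U : Subgroup G}

theorem AL.one_edge (h : AL C s) (x y : Ω) (n : x ≠ y) (S S' : Subgroup G) (a : S ∈ SS C s x y)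
    (b : S' ∈ SS C s x y) : S = S' := h.matching h.noDeg n a b

theorem AL.to6 (h : AL C s) : CfsgOA.AL C s where
  two := h.two
  cf := h.to_OA
  det _ _ _ a b := h.uniq a b
  a1 := h.one
  max := h.max
  ex x y n := let ⟨S, c, ⟨T, hT, a⟩, U, hU, b⟩ := h.ex x y n
    ⟨S, T, hT, U, hU, h.eq_inf n c hT hU a b, c⟩

theorem AL.uniq6 (h : AL C s) (x y : Ω) (n : x ≠ y) (S S' : Subgroup G) (a : Ed C s x y S)
    (b : Ed C s x y S') : S = S' :=
  h.one_edge x y n S S' ⟨a.card, a.on1, a.on2⟩ ⟨b.card, b.on1, b.on2⟩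

/-- (alpha) from the one edge case. -/
theorem alpha_of [FaithfulSMul G Ω] (two : Two G Ω) (hC : CfsgOA.CF C)
    (e1 : ∀ s, AL C s → False) (x y : Ω) (n : x ≠ y) (T : Subgroup G) (hT : T ∈ C x)
    (U : Subgroup G) (hU : U ∈ C y) : T ⊓ U = ⊥ := by
  by_contra e
  obtain ⟨t, ht, t1⟩ := (bot_or_exists_ne_one _).resolve_left e
  obtain ⟨s, h⟩ := (CF.of_OA two hC).al n hT hU ht.1 ht.2 t1
  exact e1 s h

/-- (alpha): components at different points meet trivially. -/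
theorem alpha [FaithfulSMul G Ω] [Finite Ω] [Nontrivial Ω] (two : Two G Ω) (hC : CfsgOA.CF C) :
    ∀ x y, x ≠ y → ∀ T ∈ C x, ∀ U ∈ C y, T ⊓ U = ⊥ :=
  alpha_of two hC fun _ h => h.to6.e1 h.uniq6

end CfsgOB
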